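import Cfsg.Agent.H473.GTwoSetup
import Cfsg.Agent.H473.GTwoSimple
import Cfsg.Agent.H256.ZRed
import Cfsg.Prelude.Def_Amalgam

/-!
# The hypotheses of S3393 give a finite simple group with `CritG` (helper473)
-/

set_option autoImplicit false

namespace Cfsg.Agent.H473.GTwoAmalg

open Subgroup Cfsg.Agent.H473.GTwoSetup Cfsg.Agent.H473.GTwoMain

theorem main {G : Type*} [Group G] [Finite G] (hO : Cfsg.pPrimeCore 3 G = ⊥)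
    (A₁ A₂ : Subgroup G) (hnc : ∀ g : G, A₁.map (MulAut.conj g).toMonoidHom ≠ A₂)
    (hSyl₁ : ¬ 3 ∣ ((A₁ ⊓ A₂).subgroupOf A₁).index)
    (Q₁ Q₂ : Subgroup G) (hQ₁ : Q₁ = Cfsg.pCoreOf 3 A₁) (hQ₂ : Q₂ = Cfsg.pCoreOf 3 A₂)
    (hcard₁ : Nat.card Q₁ = 3 ^ 5) (hcard₂ : Nat.card Q₂ = 3 ^ 5)
    [h₁ : (Q₁.subgroupOf A₁).Normal] [h₂ : (Q₂.subgroupOf A₂).Normal]
    (e₁ : ↥A₁ ⧸ Q₁.subgroupOf A₁ ≃* GL (Fin 2) (ZMod 3)) (e₂ : ↥A₂ ⧸ Q₂.subgroupOf A₂ ≃* GL (Fin 2) (ZMod 3))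
    (Z₁ Z₂ : Subgroup G) (hZ₁ : Z₁ = Q₁ ⊓ Subgroup.centralizer (Q₁ : Set G))
    (hZ₂ : Z₂ = Q₂ ⊓ Subgroup.centralizer (Q₂ : Set G))
    (D₁ D₂ : Subgroup G) (hD₁ : D₁ = ⁅Q₁, Q₁⁆) (hD₂ : D₂ = ⁅Q₂, Q₂⁆)
    (hmod₁ : (Z₁.subgroupOf Q₁).index = 9 ∧ D₁ ≤ Z₁ ∧ (D₁.subgroupOf Z₁).index = 9 ∧
      (∀ a ∈ A₁, a ∈ Q₁ ↔ ∀ x ∈ Q₁, a * x * a⁻¹ * x⁻¹ ∈ Z₁) ∧
      (∀ a ∈ A₁, a ∈ Q₁ ↔ ∀ z ∈ Z₁, a * z * a⁻¹ * z⁻¹ ∈ D₁))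
    (hmod₂ : (Z₂.subgroupOf Q₂).index = 9 ∧ D₂ ≤ Z₂ ∧ (D₂.subgroupOf Z₂).index = 9 ∧
      (∀ a ∈ A₂, a ∈ Q₂ ↔ ∀ x ∈ Q₂, a * x * a⁻¹ * x⁻¹ ∈ Z₂) ∧
      (∀ a ∈ A₂, a ∈ Q₂ ↔ ∀ z ∈ Z₂, a * z * a⁻¹ * z⁻¹ ∈ D₂))
    (hN₁ : Subgroup.normalizer (D₁ : Set G) = A₁) (hN₂ : Subgroup.normalizer (D₂ : Set G) = A₂) :
    IsSimpleGroup G ∧ CritG G := by
  have hp : Fact (Nat.Prime 3) := ⟨Nat.prime_three⟩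
  have hQ₁A : Q₁ ≤ A₁ := by rw [hQ₁]; exact Subgroup.map_subtype_le _
  have hQ₂A : Q₂ ≤ A₂ := by rw [hQ₂]; exact Subgroup.map_subtype_le _
  have c₁ : Nat.card A₁ = 11664 := by
    have h1 := card_eq_card_quotient_mul_card_subgroup (Q₁.subgroupOf A₁)
    rw [Nat.card_congr e₁.toEquiv, card_GL3, card_sub hQ₁A, hcard₁] at h1
    rw [h1]
    norm_num
  -- the Sylow subgroup
  have hd : 729 ∣ Nat.card (A₁ ⊓ A₂ : Subgroup G) := by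
    have h1 := Subgroup.card_mul_index ((A₁ ⊓ A₂).subgroupOf A₁)
    rw [Nat.card_congr (Subgroup.subgroupOfEquivOfLe (inf_le_left : A₁ ⊓ A₂ ≤ A₁)).toEquiv, c₁] at h1
    have h2 : 3 ^ 6 ∣ Nat.card (A₁ ⊓ A₂ : Subgroup G) * ((A₁ ⊓ A₂).subgroupOf A₁).index := by
      rw [h1]
      norm_num
    exact Nat.Coprime.dvd_of_dvd_mul_right
      (Nat.Coprime.pow_left 6 ((Nat.Prime.coprime_iff_not_dvd Nat.prime_three).2 hSyl₁)) h2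
  obtain ⟨S0, hS0⟩ := Sylow.exists_subgroup_card_pow_prime (G := (A₁ ⊓ A₂ : Subgroup G)) 3 (n := 6)
    (by norm_num; exact hd)
  obtain ⟨S, hS⟩ : ∃ S : Subgroup G, S = S0.map (A₁ ⊓ A₂ : Subgroup G).subtype := ⟨_, rfl⟩
  have cS : Nat.card S = 729 := by
    rw [hS, Nat.card_congr (S0.equivMapOfInjective _ (Subgroup.subtype_injective _)).symm.toEquiv, hS0]
    norm_num
  have hSle : S ≤ A₁ ⊓ A₂ := by rw [hS]; exact Subgroup.map_subtype_le _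
  obtain ⟨t₁, s₁⟩ := exists_side A₁ Q₁ Z₁ D₁ S hQ₁A hcard₁ e₁ hZ₁ hD₁ hmod₁ hN₁ (hSle.trans inf_le_left) cS
  obtain ⟨t₂, s₂⟩ := exists_side A₂ Q₂ Z₂ D₂ S hQ₂A hcard₂ e₂ hZ₂ hD₂ hmod₂ hN₂ (hSle.trans inf_le_right) cS
  have hA : Amalg A₁ Q₁ Z₁ D₁ A₂ Q₂ Z₂ D₂ S t₁ t₂ :=
    { s₁ := s₁
      s₂ := s₂
      nc := by
        intro g hg
        apply hnc g
        have h1 : cj g D₁ ≤ D₂ := by
          rintro _ ⟨d, hd, rfl⟩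
          exact hg d hd
        have h2 : cj g D₁ = D₂ := eq_of_le_of_card_ge h1 (by rw [card_cj, s₁.cD, s₂.cD])
        rw [← hN₁, ← hN₂, ← h2]
        exact map_equiv_normalizer_eq D₁ (MulAut.conj g)
      O := fun N hN hne => Cfsg.Agent.H256.ZRed.dvd_card_of_ne_bot hO hN hne }
  exact ⟨hA.isSimple, hA.crit⟩

end Cfsg.Agent.H473.GTwoAmalg
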